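import Cfsg.Agent.Lib.Alperin.Mho

/-!
The key facts on the deep subgroup `V`: every invariant normal subgroup `N ≤ V` has
`[V, N] ≤ ℧(N)`, and `[℧^j(V), N] ≤ ℧^{j+1}(N)`.
-/

set_option autoImplicit false

namespace Cfsg.Agent.Lib.Alperin.Key

open scoped commutatorElement
open Cfsg.Agent.Lib.Alperin.Mho Cfsg.Agent.Lib.Alperin.Sect

variable {Q : Type*} [Group Q] {p : ℕ}

lemma iter_eq_id (α : Q →* Q) (hα : ∀ x, α^[p] x = x) : α^[p] = id := funext hα

/-- a section with fixed points bounded -/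
theorem sec_card_le [Finite Q] (hp : p.Prime) (α : Q →* Q) (hαp : ∀ x, α^[p] x = x) {m : ℕ}
    (hFix : Nat.card {x : Q // α x = x} ≤ m) {U B : Subgroup Q} [U.Normal]
    (hU : ∀ x ∈ U, α x ∈ U) (hB : ∀ x ∈ B, α x ∈ B)
    (hcomm : ∀ x ∈ B, ∀ y ∈ B, ⁅x, y⁆ ∈ U) (hpow : ∀ x ∈ B, x ^ p ∈ U) :
    Nat.card (B.map (QuotientGroup.mk' U)) ≤ m ^ p := by
  let T : Subgroup (Q ⧸ U) := B.map (QuotientGroup.mk' U)
  let π : B →* T := (QuotientGroup.mk' U).subgroupMap B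
  have hπ : Function.Surjective π := (QuotientGroup.mk' U).subgroupMap_surjective B
  let β : B →* B := (α.comp B.subtype).codRestrict B (fun x => hB _ x.2)
  let ā : Q ⧸ U →* Q ⧸ U := QuotientGroup.map U U α (fun x hx => hU x hx)
  have hā : ∀ x : Q, ā (x : Q ⧸ U) = ((α x : Q) : Q ⧸ U) := fun x => rfl
  let β' : T →* T := (ā.comp T.subtype).codRestrict T (by
    rintro ⟨_, x, hx, rfl⟩
    exact ⟨α x, hB x hx, rfl⟩)
  have hc : ∀ x, π (β x) = β' (π x) := fun x => rfl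
  have h1 := card_fix_le_of_surj π hπ β β' hc
  have h2 : Nat.card {x : B // β x = x} ≤ Nat.card {x : Q // α x = x} := by
    apply Nat.card_le_card_of_injective
      (fun x : {x : B // β x = x} => (⟨(x.1 : Q), congrArg Subtype.val x.2⟩ : {x : Q // α x = x}))
    intro a b h
    apply Subtype.ext
    apply Subtype.ext
    exact congrArg (fun z : {x : Q // α x = x} => z.1) h
  have hcommT : ∀ x y : T, x * y = y * x := by
    rintro ⟨_, a, ha, rfl⟩ ⟨_, b, hb, rfl⟩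
    apply Subtype.ext
    show ((a : Q ⧸ U)) * (b : Q ⧸ U) = (b : Q ⧸ U) * (a : Q ⧸ U)
    have h3 : (((⁅a, b⁆ : Q)) : Q ⧸ U) = 1 := (QuotientGroup.eq_one_iff _).mpr (hcomm a ha b hb)
    rw [commutatorElement_def] at h3
    simp only [QuotientGroup.mk_mul, QuotientGroup.mk_inv] at h3
    have := mul_inv_eq_one.mp h3
    exact mul_inv_eq_iff_eq_mul.mp this
  have hexpT : ∀ x : T, x ^ p = 1 := by
    rintro ⟨_, a, ha, rfl⟩
    apply Subtype.ext
    show ((a : Q ⧸ U)) ^ p = 1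
    rw [← QuotientGroup.mk_pow]
    exact (QuotientGroup.eq_one_iff _).mpr (hpow a ha)
  have hβ' : ∀ x, β'^[p] x = x := by
    have hk : ∀ (k : ℕ) (a : Q) (ha : a ∈ B), ∀ h' : ((a : Q ⧸ U)) ∈ T,
        ((β'^[k] ⟨(a : Q ⧸ U), h'⟩ : T) : Q ⧸ U) = ((α^[k] a : Q) : Q ⧸ U) := by
      intro k a ha h'
      induction k with
      | zero => rfl
      | succ k ih =>
        rw [Function.iterate_succ_apply', Function.iterate_succ_apply']
        show ā ((β'^[k] ⟨(a : Q ⧸ U), h'⟩ : T) : Q ⧸ U) = _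
        rw [ih]
        rfl
    rintro ⟨_, a, ha, rfl⟩
    apply Subtype.ext
    have := hk p a ha ⟨a, ha, rfl⟩
    rw [hαp] at this
    exact this
  have h4 := card_le_fix_pow hcommT hp hexpT β' hβ'
  have h5 : Nat.card {y : T // β' y = y} ≤ m := h1.trans (h2.trans hFix)
  exact h4.trans (Nat.pow_le_pow_left h5 p)

/-- the normal subgroup centralizing a section -/
theorem exists_central_index [Finite Q] (U B : Subgroup Q) [U.Normal] [hBn : B.Normal] :
    ∃ C : Subgroup Q, C.Normal ∧ C.index ≤ (Nat.card (B.map (QuotientGroup.mk' U))).factorial ∧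
      ∀ g ∈ C, ∀ x ∈ B, ⁅g, x⁆ ∈ U := by
  classical
  let T : Subgroup (Q ⧸ U) := B.map (QuotientGroup.mk' U)
  haveI hT : T.Normal := hBn.map _ (QuotientGroup.mk'_surjective U)
  let ρ : Q →* Equiv.Perm T :=
    (MulAut.toPerm T).comp ((MulAut.conjNormal (H := T)).comp (QuotientGroup.mk' U))
  refine ⟨ρ.ker, inferInstance, ?_, ?_⟩
  · rw [Subgroup.index_ker]
    calc Nat.card ρ.range ≤ Nat.card (Equiv.Perm T) := Nat.card_le_card_of_injective _ Subtype.val_injective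
      _ = (Nat.card T).factorial := Nat.card_perm
  · intro g hg x hx
    have h1 : ρ g = 1 := hg
    have h2 := congrArg (fun σ : Equiv.Perm T => ((σ ⟨(x : Q ⧸ U), x, hx, rfl⟩ : T) : Q ⧸ U)) h1
    simp only [Equiv.Perm.coe_one, id_eq] at h2
    have h3 : (g : Q ⧸ U) * (x : Q ⧸ U) * (g : Q ⧸ U)⁻¹ = (x : Q ⧸ U) := h2
    rw [← QuotientGroup.eq_one_iff, commutatorElement_def]
    simp only [QuotientGroup.mk_mul, QuotientGroup.mk_inv]
    rw [h3, mul_inv_cancel]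

section main

variable [hp : Fact p.Prime] [Finite Q]

/-- **The key commutator relation.** -/
theorem comm_mem_mho (hQ : IsPGroup p Q) (α : MulAut Q) (hαp : ∀ x, (α : Q →* Q)^[p] x = x)
    {V : Subgroup Q}
    (hVsec : ∀ U B : Subgroup Q, U.Normal → B.Normal → (∀ x ∈ U, α x ∈ U) → (∀ x ∈ B, α x ∈ B) →
      (∀ x ∈ B, ∀ y ∈ B, ⁅x, y⁆ ∈ U) → (∀ x ∈ B, x ^ p ∈ U) → ∀ g ∈ V, ∀ x ∈ B, ⁅g, x⁆ ∈ U)
    {N : Subgroup Q} (hNn : N.Normal) (hNα : ∀ x ∈ N, α x ∈ N) (hNV : N ≤ V) :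
    ∀ g ∈ V, ∀ x ∈ N, ⁅g, x⁆ ∈ mho p N := by
  let U : Subgroup Q := mho p N
  haveI hUn : U.Normal := mho_normal hNn
  have hUα : ∀ x ∈ U, α x ∈ U := mho_stable (φ := (α : Q →* Q)) hNα
  let 𝒜 : Set (Subgroup Q) := {A | U ≤ A ∧ A ≤ N ∧ A.Normal ∧ (∀ x ∈ A, α x ∈ A) ∧
    ∀ g ∈ V, ∀ x ∈ A, ⁅g, x⁆ ∈ U}
  have hU𝒜 : U ∈ 𝒜 := by
    refine ⟨le_rfl, mho_le N, hUn, hUα, ?_⟩
    intro g _ x hx
    rw [commutatorElement_def]
    exact U.mul_mem (hUn.conj_mem x hx g) (U.inv_mem hx)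
  obtain ⟨A, hA⟩ := (Set.toFinite 𝒜).exists_maximal ⟨U, hU𝒜⟩
  obtain ⟨hUA, hAN, hAn, hAα, hAc⟩ := hA.1
  haveI := hAn
  suffices hNA : N ≤ A from fun g hg x hx => hAc g hg x (hNA hx)
  by_contra hNA
  -- work in `R = Q / A`
  let mkA := QuotientGroup.mk' A
  have hmkA : Function.Surjective mkA := QuotientGroup.mk'_surjective A
  have hR : IsPGroup p (Q ⧸ A) := hQ.of_surjective mkA hmkA
  let Nb : Subgroup (Q ⧸ A) := N.map mkA
  haveI hNbn : Nb.Normal := hNn.map _ hmkA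
  have hNb : Nb ≠ ⊥ := by
    intro h
    apply hNA
    intro x hx
    have : mkA x ∈ Nb := ⟨x, hx, rfl⟩
    rw [h, Subgroup.mem_bot] at this
    exact (QuotientGroup.eq_one_iff x).mp this
  obtain ⟨z0, hz0N, hz0c, hz0o⟩ := Cfsg.Agent.Lib.PGroups.Basic.exists_central_orderOf_eq hR Nb hNb
  let ā : Q ⧸ A →* Q ⧸ A := QuotientGroup.map A A (α : Q →* Q) (fun x hx => hAα x hx)
  have hā : ∀ x : Q, ā (x : Q ⧸ A) = ((α x : Q) : Q ⧸ A) := fun x => rfl
  have hāsurj : Function.Surjective ā := by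
    intro y
    obtain ⟨x, rfl⟩ := QuotientGroup.mk_surjective y
    exact ⟨((α.symm x : Q) : Q ⧸ A), by rw [hā]; simp⟩
  let Z : Subgroup (Q ⧸ A) := Nb ⊓ Subgroup.center (Q ⧸ A)
  have hZstable : ∀ y ∈ Z, ā y ∈ Z := by
    rintro y ⟨hyN, hyc⟩
    refine ⟨?_, ?_⟩
    · obtain ⟨x, hx, rfl⟩ := hyN
      exact ⟨α x, hNα x hx, rfl⟩
    · have hyc' : y ∈ Subgroup.center (Q ⧸ A) := hyc
      show ā y ∈ Subgroup.center (Q ⧸ A)
      rw [Subgroup.mem_center_iff] at hyc' ⊢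
      intro r
      obtain ⟨r', rfl⟩ := hāsurj r
      rw [← map_mul, ← map_mul, hyc']
  have hZpgroup : IsPGroup p Z := hR.to_subgroup Z
  have hz0ne : z0 ≠ 1 := by
    intro h
    rw [h, orderOf_one] at hz0o
    exact (Fact.out : p.Prime).one_lt.ne hz0o
  haveI hZnt : Nontrivial Z := ⟨⟨⟨z0, hz0N, hz0c⟩, 1, fun h => hz0ne (congrArg Subtype.val h)⟩⟩
  let βZ : Z →* Z := (ā.comp Z.subtype).codRestrict Z (fun y => hZstable _ y.2)
  have hβZ : ∀ y, βZ^[p] y = y := by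
    have hk : ∀ (k : ℕ) (a : Q) (h' : (a : Q ⧸ A) ∈ Z),
        ((βZ^[k] ⟨(a : Q ⧸ A), h'⟩ : Z) : Q ⧸ A) = (((α : Q →* Q)^[k] a : Q) : Q ⧸ A) := by
      intro k a h'
      induction k with
      | zero => rfl
      | succ k ih =>
        rw [Function.iterate_succ_apply', Function.iterate_succ_apply']
        show ā ((βZ^[k] ⟨(a : Q ⧸ A), h'⟩ : Z) : Q ⧸ A) = _
        rw [ih]
        rfl
    rintro ⟨y, hy⟩
    obtain ⟨a, rfl⟩ := QuotientGroup.mk_surjective y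
    apply Subtype.ext
    have := hk p a hy
    rw [hαp] at this
    exact this
  obtain ⟨⟨zb, hzbZ⟩, hzb1, hzbfix⟩ := exists_fix_ne_one hZpgroup βZ hβZ
  have hzbne : zb ≠ 1 := fun h => hzb1 (Subtype.ext h)
  have hzbfix' : ā zb = zb := congrArg Subtype.val hzbfix
  obtain ⟨⟨z, hzN, hzmk⟩, hzbc⟩ := hzbZ
  have hzmk' : mkA z = zb := hzmk
  let Zp : Subgroup (Q ⧸ A) := Subgroup.zpowers zb
  have hZpc : ∀ y ∈ Zp, y ∈ Subgroup.center (Q ⧸ A) := by
    intro y hy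
    obtain ⟨k, rfl⟩ := Subgroup.mem_zpowers_iff.mp hy
    exact Subgroup.zpow_mem _ hzbc k
  haveI hZpn : Zp.Normal := by
    constructor
    intro n hn g
    have := Subgroup.mem_center_iff.mp (hZpc n hn) g
    rw [this, mul_inv_cancel_right]
    exact hn
  let B : Subgroup Q := Zp.comap mkA
  have hBn : B.Normal := hZpn.comap mkA
  have hAB : A ≤ B := by
    intro x hx
    show mkA x ∈ Zp
    have h1 : mkA x = 1 := (QuotientGroup.eq_one_iff x).mpr hx
    rw [h1]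
    exact one_mem _
  have hzB : z ∈ B := by
    show mkA z ∈ Zp
    rw [hzmk']
    exact Subgroup.mem_zpowers zb
  have hzA : z ∉ A := by
    intro h
    apply hzbne
    rw [← hzmk']
    exact (QuotientGroup.eq_one_iff z).mpr h
  -- decomposition of the elements of `B`
  have hBdec : ∀ x ∈ B, ∃ (k : ℤ) (a : Q), a ∈ A ∧ x = z ^ k * a := by
    intro x hx
    have hx' : mkA x ∈ Zp := hx
    obtain ⟨k, hk⟩ := Subgroup.mem_zpowers_iff.mp hx'
    refine ⟨k, (z ^ k)⁻¹ * x, ?_, by group⟩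
    rw [← QuotientGroup.eq_one_iff]
    have : mkA ((z ^ k)⁻¹ * x) = 1 := by
      rw [map_mul, map_inv, map_zpow, hzmk', hk, inv_mul_cancel]
    exact this
  have hBα : ∀ x ∈ B, α x ∈ B := by
    intro x hx
    show mkA (α x) ∈ Zp
    obtain ⟨k, hk⟩ := Subgroup.mem_zpowers_iff.mp (show mkA x ∈ Zp from hx)
    have : mkA (α x) = ā (mkA x) := rfl
    rw [this, ← hk, map_zpow, hzbfix']
    exact Subgroup.zpow_mem_zpowers _ _
  have hBN : B ≤ N := by
    intro x hx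
    obtain ⟨k, a, ha, rfl⟩ := hBdec x hx
    exact N.mul_mem (N.zpow_mem hzN k) (hAN ha)
  -- commutation modulo `U`
  let c := QuotientGroup.mk' U
  have hcomm_of : ∀ g ∈ V, ∀ a ∈ A, Commute (c g) (c a) := by
    intro g hg a ha
    have h1 : c ⁅g, a⁆ = 1 := (QuotientGroup.eq_one_iff _).mpr (hAc g hg a ha)
    rw [map_commutatorElement] at h1
    exact commutatorElement_eq_one_iff_commute.mp h1
  have hBcomm : ∀ x ∈ B, ∀ y ∈ B, ⁅x, y⁆ ∈ U := by
    intro x hx y hy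
    obtain ⟨k, a, ha, rfl⟩ := hBdec x hx
    obtain ⟨l, b, hb, rfl⟩ := hBdec y hy
    rw [← QuotientGroup.eq_one_iff]
    change c _ = 1
    rw [map_commutatorElement, commutatorElement_eq_one_iff_commute, map_mul, map_mul, map_zpow, map_zpow]
    have h1 : Commute (c z) (c a) := hcomm_of z (hNV hzN) a ha
    have h2 : Commute (c z) (c b) := hcomm_of z (hNV hzN) b hb
    have h3 : Commute (c a) (c b) := (hcomm_of a (hNV (hAN ha)) b hb)
    refine Commute.mul_left ?_ ?_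
    · exact Commute.mul_right (Commute.refl _ |>.zpow_zpow k l) (h2.zpow_left k)
    · exact Commute.mul_right (h1.symm.zpow_right l) h3
  have hBpow : ∀ x ∈ B, x ^ p ∈ U := fun x hx => pow_mem_mho (hBN hx)
  have hBc := hVsec U B hUn hBn hUα hBα hBcomm hBpow
  have hB𝒜 : B ∈ 𝒜 := ⟨hUA.trans hAB, hBN, hBn, hBα, hBc⟩
  exact hzA (hA.2 hB𝒜 hAB hzB)

/-- **Iterated form.** -/
theorem comm_mem_mho_iter (hQ : IsPGroup p Q) (α : MulAut Q) (hαp : ∀ x, (α : Q →* Q)^[p] x = x)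
    {V : Subgroup Q}
    (hVsec : ∀ U B : Subgroup Q, U.Normal → B.Normal → (∀ x ∈ U, α x ∈ U) → (∀ x ∈ B, α x ∈ B) →
      (∀ x ∈ B, ∀ y ∈ B, ⁅x, y⁆ ∈ U) → (∀ x ∈ B, x ^ p ∈ U) → ∀ g ∈ V, ∀ x ∈ B, ⁅g, x⁆ ∈ U)
    (j : ℕ) {N : Subgroup Q} (hNn : N.Normal) (hNα : ∀ x ∈ N, α x ∈ N) (hNV : N ≤ V) :
    ∀ g ∈ (mho p)^[j] V, ∀ x ∈ N, ⁅g, x⁆ ∈ (mho p)^[j + 1] N := by
  induction j with
  | zero =>
    intro g hg x hx
    exact comm_mem_mho hQ α hαp hVsec hNn hNα hNV g hg x hx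
  | succ j ih =>
    let W : Subgroup Q := (mho p)^[j + 1] N
    have hWn : W.Normal := mho_iter_normal _ hNn
    have hWα : ∀ x ∈ W, α x ∈ W := mho_iter_stable (φ := (α : Q →* Q)) _ hNα
    have hWV : W ≤ V := (mho_iter_le _ N).trans hNV
    let T : Subgroup Q := mho p W
    have hTeq : (mho p)^[j + 1 + 1] N = T := by
      rw [Function.iterate_succ_apply']
    haveI hTn : T.Normal := mho_normal hWn
    rw [hTeq]
    -- the subgroup of elements commuting with `N` modulo `T`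
    let c := QuotientGroup.mk' T
    let S : Subgroup Q := (Subgroup.centralizer ((N.map c : Subgroup (Q ⧸ T)) : Set (Q ⧸ T))).comap c
    have hS : ∀ g ∈ S, ∀ x ∈ N, ⁅g, x⁆ ∈ T := by
      intro g hg x hx
      have h1 : c g ∈ Subgroup.centralizer ((N.map c : Subgroup (Q ⧸ T)) : Set (Q ⧸ T)) := hg
      have h2 := Subgroup.mem_centralizer_iff.mp h1 (c x) ⟨x, hx, rfl⟩
      rw [← QuotientGroup.eq_one_iff]
      change c _ = 1
      rw [map_commutatorElement, commutatorElement_eq_one_iff_commute]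
      exact h2.symm
    have hle : (mho p)^[j + 1] V ≤ S := by
      rw [Function.iterate_succ_apply']
      refine (Subgroup.closure_le _).2 ?_
      rintro _ ⟨y, hy, rfl⟩
      show c (y ^ p) ∈ Subgroup.centralizer ((N.map c : Subgroup (Q ⧸ T)) : Set (Q ⧸ T))
      rw [Subgroup.mem_centralizer_iff]
      rintro _ ⟨x, hx, rfl⟩
      have hyV : y ∈ V := mho_iter_le _ V hy
      have hcW : ⁅y, x⁆ ∈ W := ih y hy x hx
      have hc1 : c ⁅y, ⁅y, x⁆⁆ = 1 :=
        (QuotientGroup.eq_one_iff _).mpr (comm_mem_mho hQ α hαp hVsec hWn hWα hWV y hyV _ hcW)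
      rw [map_commutatorElement] at hc1
      have hcy : Commute (c y) (c ⁅y, x⁆) := commutatorElement_eq_one_iff_commute.mp hc1
      have hconj : ∀ k : ℕ, c y ^ k * c x * (c y ^ k)⁻¹ = c ⁅y, x⁆ ^ k * c x := by
        intro k
        induction k with
        | zero => simp
        | succ k ihk =>
          have e1 : c y * c x * (c y)⁻¹ = c ⁅y, x⁆ * c x := by
            rw [map_commutatorElement, commutatorElement_def]
            group
          calc c y ^ (k + 1) * c x * (c y ^ (k + 1))⁻¹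
              = c y * (c y ^ k * c x * (c y ^ k)⁻¹) * (c y)⁻¹ := by
                rw [pow_succ']; group
            _ = c y * (c ⁅y, x⁆ ^ k * c x) * (c y)⁻¹ := by rw [ihk]
            _ = (c y * c ⁅y, x⁆ ^ k * (c y)⁻¹) * (c y * c x * (c y)⁻¹) := by group
            _ = c ⁅y, x⁆ ^ k * (c y * c x * (c y)⁻¹) := by
                rw [(hcy.pow_right k).eq, mul_inv_cancel_right]
            _ = c ⁅y, x⁆ ^ (k + 1) * c x := by rw [e1, pow_succ, mul_assoc]
      have hcp : c ⁅y, x⁆ ^ p = 1 := by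
        rw [← map_pow]
        exact (QuotientGroup.eq_one_iff _).mpr (pow_mem_mho hcW)
      have h3 := hconj p
      rw [hcp, one_mul] at h3
      rw [map_pow]
      exact (mul_inv_eq_iff_eq_mul.mp h3).symm
    intro g hg x hx
    exact hS g (hle hg) x hx

end main

end Cfsg.Agent.Lib.Alperin.Key
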