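import Cfsg.Agent.Lib.Alperin.Sect
import Cfsg.Agent.Lib.PGroups.Basic

/-!
Iterated power subgroups and Frattini-type chains.
-/

set_option autoImplicit false

namespace Cfsg.Agent.Lib.Alperin.Mho

open scoped commutatorElement

variable {Q R : Type*} [Group Q] [Group R] {p : ℕ}

/-- the subgroup generated by `p`-th powers -/
def mho (p : ℕ) (S : Subgroup Q) : Subgroup Q := Subgroup.closure {y | ∃ x ∈ S, y = x ^ p}

/-- `℧(S) [S,S]` -/
def Fr (p : ℕ) (S : Subgroup Q) : Subgroup Q := mho p S ⊔ ⁅S, S⁆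

lemma pow_mem_mho {S : Subgroup Q} {x : Q} (hx : x ∈ S) : x ^ p ∈ mho p S :=
  Subgroup.subset_closure ⟨x, hx, rfl⟩

lemma mho_le (S : Subgroup Q) : mho p S ≤ S := by
  refine (Subgroup.closure_le _).2 ?_
  rintro _ ⟨x, hx, rfl⟩
  exact pow_mem hx p

lemma mho_mono {S T : Subgroup Q} (h : S ≤ T) : mho p S ≤ mho p T :=
  Subgroup.closure_mono (by rintro _ ⟨x, hx, rfl⟩; exact ⟨x, h hx, rfl⟩)

lemma mho_map_le (φ : Q →* R) (S : Subgroup Q) : (mho p S).map φ ≤ mho p (S.map φ) := by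
  rw [mho, MonoidHom.map_closure, Subgroup.closure_le]
  rintro _ ⟨_, ⟨x, hx, rfl⟩, rfl⟩
  refine Subgroup.subset_closure ⟨φ x, ⟨x, hx, rfl⟩, ?_⟩
  exact map_pow φ x p

lemma Fr_le (S : Subgroup Q) : Fr p S ≤ S :=
  sup_le (mho_le S) (Subgroup.commutator_le.mpr fun _ ha _ hb =>
    S.mul_mem (S.mul_mem (S.mul_mem ha hb) (S.inv_mem ha)) (S.inv_mem hb))

lemma Fr_mono {S T : Subgroup Q} (h : S ≤ T) : Fr p S ≤ Fr p T :=
  sup_le_sup (mho_mono h) (Subgroup.commutator_mono h h)

lemma comm_le_Fr (S : Subgroup Q) : ⁅S, S⁆ ≤ Fr p S := le_sup_right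

lemma Fr_map_le (φ : Q →* R) (S : Subgroup Q) : (Fr p S).map φ ≤ Fr p (S.map φ) := by
  rw [Fr, Subgroup.map_sup, Subgroup.map_commutator]
  exact sup_le_sup (mho_map_le φ S) le_rfl

lemma mho_stable {φ : Q →* Q} {S : Subgroup Q} (h : ∀ x ∈ S, φ x ∈ S) : ∀ x ∈ mho p S, φ x ∈ mho p S := by
  intro x hx
  have h1 : φ x ∈ (mho p S).map φ := ⟨x, hx, rfl⟩
  have h2 : S.map φ ≤ S := by rintro _ ⟨y, hy, rfl⟩; exact h y hy
  exact mho_mono h2 (mho_map_le φ S h1)

lemma Fr_stable {φ : Q →* Q} {S : Subgroup Q} (h : ∀ x ∈ S, φ x ∈ S) : ∀ x ∈ Fr p S, φ x ∈ Fr p S := by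
  intro x hx
  have h1 : φ x ∈ (Fr p S).map φ := ⟨x, hx, rfl⟩
  have h2 : S.map φ ≤ S := by rintro _ ⟨y, hy, rfl⟩; exact h y hy
  exact Fr_mono h2 (Fr_map_le φ S h1)

lemma normal_of_conj {S : Subgroup Q} (h : ∀ g : Q, ∀ x ∈ S, (MulAut.conj g).toMonoidHom x ∈ S) : S.Normal :=
  ⟨fun n hn g => h g n hn⟩

lemma conj_stable_of_normal {S : Subgroup Q} (h : S.Normal) (g : Q) :
    ∀ x ∈ S, (MulAut.conj g).toMonoidHom x ∈ S :=
  fun x hx => h.conj_mem x hx g

lemma mho_normal {S : Subgroup Q} (h : S.Normal) : (mho p S).Normal :=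
  normal_of_conj fun g => mho_stable (conj_stable_of_normal h g)

lemma Fr_normal {S : Subgroup Q} (h : S.Normal) : (Fr p S).Normal :=
  normal_of_conj fun g => Fr_stable (conj_stable_of_normal h g)

lemma Fr_iter_map_le (φ : Q →* R) (k : ℕ) (S : Subgroup Q) :
    ((Fr p)^[k] S).map φ ≤ (Fr p)^[k] (S.map φ) := by
  induction k with
  | zero => exact le_rfl
  | succ k ih =>
    rw [Function.iterate_succ_apply', Function.iterate_succ_apply']
    exact (Fr_map_le φ _).trans (Fr_mono ih)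

lemma Fr_iter_normal (k : ℕ) {S : Subgroup Q} (h : S.Normal) : ((Fr p)^[k] S).Normal := by
  induction k with
  | zero => exact h
  | succ k ih =>
    rw [Function.iterate_succ_apply']
    exact Fr_normal ih

lemma Fr_iter_stable {φ : Q →* Q} (k : ℕ) {S : Subgroup Q} (h : ∀ x ∈ S, φ x ∈ S) :
    ∀ x ∈ (Fr p)^[k] S, φ x ∈ (Fr p)^[k] S := by
  induction k with
  | zero => exact h
  | succ k ih =>
    rw [Function.iterate_succ_apply']
    exact Fr_stable ih

lemma mho_iter_normal (k : ℕ) {S : Subgroup Q} (h : S.Normal) : ((mho p)^[k] S).Normal := by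
  induction k with
  | zero => exact h
  | succ k ih =>
    rw [Function.iterate_succ_apply']
    exact mho_normal ih

lemma mho_iter_stable {φ : Q →* Q} (k : ℕ) {S : Subgroup Q} (h : ∀ x ∈ S, φ x ∈ S) :
    ∀ x ∈ (mho p)^[k] S, φ x ∈ (mho p)^[k] S := by
  induction k with
  | zero => exact h
  | succ k ih =>
    rw [Function.iterate_succ_apply']
    exact mho_stable ih

lemma mho_iter_le (k : ℕ) (S : Subgroup Q) : (mho p)^[k] S ≤ S := by
  induction k with
  | zero => exact le_rfl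
  | succ k ih =>
    rw [Function.iterate_succ_apply']
    exact (mho_le _).trans ih

section pgroup

variable [hp : Fact p.Prime]

/-- Strict descent in a finite `p`-group. -/
lemma Fr_lt [Finite R] (hR : IsPGroup p R) {S : Subgroup R} (hS : S ≠ ⊥) : Fr p S < S := by
  refine lt_of_le_of_ne (Fr_le S) ?_
  intro heq
  have hSp : IsPGroup p S := hR.to_subgroup S
  haveI : Nontrivial S := (Subgroup.nontrivial_iff_ne_bot S).mpr hS
  -- a coatom of `S`
  obtain ⟨M, hM⟩ : ∃ M : Subgroup S, IsCoatom M := by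
    obtain h | ⟨M, hM, -⟩ := eq_top_or_exists_le_coatom (⊥ : Subgroup S)
    · exact absurd h bot_ne_top
    · exact ⟨M, hM⟩
  have hΦ : frattini S ≤ M := frattini_le_coatom hM
  have hle : Fr p S ≤ M.map S.subtype := by
    refine sup_le ?_ ?_
    · refine (Subgroup.closure_le _).2 ?_
      rintro _ ⟨x, hx, rfl⟩
      refine ⟨⟨x, hx⟩ ^ p, hΦ (Cfsg.Agent.Lib.PGroups.Basic.pow_mem_frattini hSp _), rfl⟩
    · rw [Subgroup.commutator_le]
      intro a ha b hb
      let a' : S := ⟨a, ha⟩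
      let b' : S := ⟨b, hb⟩
      refine ⟨⁅a', b'⁆, ?_, rfl⟩
      exact hΦ (Cfsg.Agent.Lib.PGroups.Basic.commutator_le_frattini hSp
        (Subgroup.commutator_mem_commutator (Subgroup.mem_top _) (Subgroup.mem_top _)))
  apply hM.1
  rw [eq_top_iff]
  rintro ⟨x, hx⟩ -
  rw [← heq] at hx
  obtain ⟨y, hy, hyx⟩ := hle hx
  have : y = ⟨x, by rw [heq] at hx; exact hx⟩ := Subtype.ext hyx
  rw [← this]
  exact hy

lemma Fr_iter_bot [Finite R] (hR : IsPGroup p R) {k : ℕ} (hk : Nat.card R ≤ k) :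
    (Fr p)^[k] (⊤ : Subgroup R) = ⊥ := by
  have key : ∀ k : ℕ, (Fr p)^[k] (⊤ : Subgroup R) = ⊥ ∨
      Nat.card ((Fr p)^[k] (⊤ : Subgroup R)) + k ≤ Nat.card R := by
    intro k
    induction k with
    | zero =>
      right
      simp only [Function.iterate_zero, id_eq, add_zero]
      exact le_of_eq (Nat.card_congr Subgroup.topEquiv.toEquiv)
    | succ k ih =>
      rw [Function.iterate_succ_apply']
      obtain h | h := ih
      · left
        rw [h]
        exact eq_bot_iff.mpr (Fr_le _)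
      · by_cases hb : (Fr p)^[k] (⊤ : Subgroup R) = ⊥
        · left
          rw [hb]
          exact eq_bot_iff.mpr (Fr_le _)
        · right
          have hlt := Fr_lt hR hb
          have hcard : Nat.card (Fr p ((Fr p)^[k] (⊤ : Subgroup R))) <
              Nat.card ((Fr p)^[k] (⊤ : Subgroup R)) := by
            by_contra hc
            exact hlt.ne (Subgroup.eq_of_le_of_card_ge hlt.le (not_lt.mp hc))
          omega
  obtain h | h := key k
  · exact h
  · have : 0 < Nat.card ((Fr p)^[k] (⊤ : Subgroup R)) := Nat.card_pos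
    omega

lemma Fr_iter_le [Finite Q] (hQ : IsPGroup p Q) {C : Subgroup Q} [C.Normal] {k : ℕ}
    (hC : C.index ≤ k) : (Fr p)^[k] (⊤ : Subgroup Q) ≤ C := by
  let φ := QuotientGroup.mk' C
  have hφ : Function.Surjective φ := QuotientGroup.mk'_surjective C
  have hq : IsPGroup p (Q ⧸ C) := hQ.of_surjective φ hφ
  have h1 := Fr_iter_map_le (p := p) φ k (⊤ : Subgroup Q)
  have h2 : (Fr p)^[k] (⊤ : Subgroup (Q ⧸ C)) = ⊥ := Fr_iter_bot hq hC
  have h3 : (⊤ : Subgroup Q).map φ = ⊤ := by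
    rw [Subgroup.map_top_of_surjective φ hφ]
  rw [h3, h2] at h1
  intro x hx
  have : φ x ∈ (⊥ : Subgroup (Q ⧸ C)) := h1 ⟨x, hx, rfl⟩
  rw [Subgroup.mem_bot] at this
  exact (QuotientGroup.eq_one_iff x).mp this

/-- a nontrivial fixed point -/
lemma exists_fix_ne_one {Z : Type*} [Group Z] [Finite Z] [Nontrivial Z] (hZ : IsPGroup p Z)
    (β : Z →* Z) (hβ : ∀ x, β^[p] x = x) : ∃ x : Z, x ≠ 1 ∧ β x = x := by
  classical
  haveI := Fintype.ofFinite Z
  let f : Function.End Z := (β : Z → Z)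
  have hf : f ^ p ^ 1 = 1 := by
    funext x
    rw [pow_one]
    have hk : ∀ (k : ℕ) (x : Z), (f ^ k) x = β^[k] x := by
      intro k x
      induction k generalizing x with
      | zero => rfl
      | succ k ih =>
        rw [pow_succ', Function.iterate_succ_apply']
        show f ((f ^ k) x) = _
        rw [ih]
    rw [hk, hβ]
    rfl
  have hmod := Equiv.Perm.card_fixedPoints_modEq (f := f) (p := p) (n := 1) hf
  have hpZ : p ∣ Fintype.card Z := by
    rw [← Nat.card_eq_fintype_card]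
    obtain ⟨n, hn⟩ := IsPGroup.iff_card.mp hZ
    rw [hn]
    have : n ≠ 0 := by
      rintro rfl
      have : Nat.card Z = 1 := by simpa using hn
      have h2 := Finite.one_lt_card (α := Z)
      omega
    exact dvd_pow_self p this
  have hpF : p ∣ Fintype.card (Function.fixedPoints f) := by
    exact (Nat.modEq_zero_iff_dvd.mp (hmod.symm.trans (Nat.modEq_zero_iff_dvd.mpr hpZ)))
  have h1 : (1 : Z) ∈ Function.fixedPoints f := by
    show β 1 = 1
    exact map_one β
  haveI : Nonempty (Function.fixedPoints f) := ⟨⟨1, h1⟩⟩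
  have hpos : 0 < Fintype.card (Function.fixedPoints f) := Fintype.card_pos
  have hge : p ≤ Fintype.card (Function.fixedPoints f) := Nat.le_of_dvd hpos hpF
  have h2 : 1 < Fintype.card (Function.fixedPoints f) := lt_of_lt_of_le (Fact.out : p.Prime).one_lt hge
  obtain ⟨y, hy⟩ := Fintype.exists_ne_of_one_lt_card h2 ⟨1, h1⟩
  refine ⟨y.1, fun h => hy (Subtype.ext h), y.2⟩

end pgroup

end Cfsg.Agent.Lib.Alperin.Mho
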