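import Cfsg.Agent.Lib.HigmanLie.Eigen

/-!
Torsion form of the Higman-Kreknin-Kostrikin theorem: a Lie ring with an automorphism of prime
order `p` whose fixed points are killed by `p ^ n` has `γ_{ξ+1}` killed by a bounded power of `p`.
-/

set_option autoImplicit false

namespace Cfsg.Agent.Lib.Alperin.Tors

open TensorProduct Polynomial
open Cfsg.Agent.Lib.HigmanLie.Graded Cfsg.Agent.Lib.HigmanLie.Class Cfsg.Agent.Lib.HigmanLie.Eigen
open Cfsg.Agent.Lib.HigmanLie.AssocLie (lcsL)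

variable {L : Type*} [LieRing L] {p : ℕ} [hp : Fact p.Prime]

/-- the number `ξ` -/
abbrev xiN (p : ℕ) : ℕ := (Finset.range (2 ^ (p - 1) - 1)).sum (fun i => (p - 1) ^ i)

/-- the Lie subring `tot F` -/
def totS {F : Fam L p} (hF : IsGr F) : LieSubalgebra ℤ L :=
  { (tot F).toIntSubmodule with
    lie_mem' := by
      intro x y hx hy
      change x ∈ tot F at hx
      change y ∈ tot F at hy
      change ⁅x, y⁆ ∈ tot F
      refine tot_induction (P := fun x => ⁅x, y⁆ ∈ tot F) hx ?_ ?_ ?_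
      · intro a u hu
        refine tot_induction (P := fun y => ⁅u, y⁆ ∈ tot F) hy ?_ ?_ ?_
        · intro b v hv
          exact mem_tot (hF.lie_mem hu hv)
        · rw [lie_zero]; exact zero_mem _
        · intro y z h₁ h₂
          rw [lie_add]; exact add_mem h₁ h₂
      · rw [zero_lie]; exact zero_mem _
      · intro y z h₁ h₂
        rw [add_lie]; exact add_mem h₁ h₂ }

lemma mem_totS {F : Fam L p} (hF : IsGr F) {x : L} : x ∈ totS hF ↔ x ∈ tot F := Iff.rfl

/-- the restricted family -/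
def resF {F : Fam L p} (hF : IsGr F) : Fam (totS hF) p := fun i =>
  { carrier := {x | (x : L) ∈ F i}
    add_mem' := fun {a b} (ha : (a : L) ∈ F i) (hb : (b : L) ∈ F i) => (F i).add_mem ha hb
    zero_mem' := (F i).zero_mem
    neg_mem' := fun {a} (ha : (a : L) ∈ F i) => (F i).neg_mem ha }

lemma mem_resF {F : Fam L p} (hF : IsGr F) {i : ZMod p} {x : totS hF} :
    x ∈ resF hF i ↔ (x : L) ∈ F i := Iff.rfl

lemma isGr_resF {F : Fam L p} (hF : IsGr F) : IsGr (resF hF) where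
  lie_mem := by
    intro a b x y hx hy
    rw [mem_resF] at hx hy ⊢
    exact hF.lie_mem hx hy
  zero := by
    refine le_antisymm ?_ bot_le
    intro x hx
    rw [mem_resF] at hx
    rw [AddSubgroup.mem_bot]
    exact Subtype.ext (hF.eq_zero hx)

lemma tot_resF {F : Fam L p} (hF : IsGr F) : tot (resF hF) = ⊤ := by
  refine eq_top_iff.mpr ?_
  rintro ⟨x, hx⟩ -
  have hx' : x ∈ tot F := hx
  have : ∃ h : x ∈ totS hF, (⟨x, h⟩ : totS hF) ∈ tot (resF hF) := by
    refine tot_induction (P := fun x => ∃ h : x ∈ totS hF, (⟨x, h⟩ : totS hF) ∈ tot (resF hF))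
      hx' ?_ ?_ ?_
    · intro i y hy
      exact ⟨mem_tot hy, mem_tot (i := i) hy⟩
    · exact ⟨zero_mem _, zero_mem _⟩
    · rintro y z ⟨h₁, h₁'⟩ ⟨h₂, h₂'⟩
      exact ⟨add_mem h₁ h₂, add_mem h₁' h₂'⟩
  obtain ⟨h, h'⟩ := this
  exact h'

lemma lcs_lift {F : Fam L p} (hF : IsGr F) (k : ℕ) :
    ∀ (i : ZMod p) (y : L), y ∈ lcs F k i →
      ∃ h : y ∈ totS hF, (⟨y, h⟩ : totS hF) ∈ lcs (resF hF) k i := by
  induction k with
  | zero =>
    intro i y hy
    exact ⟨mem_tot (i := i) hy, hy⟩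
  | succ k ih =>
    intro i y hy
    change y ∈ brk (lcs F k) F i at hy
    refine AddSubgroup.closure_induction
      (p := fun y _ => ∃ h : y ∈ totS hF, (⟨y, h⟩ : totS hF) ∈ lcs (resF hF) (k + 1) i)
      ?_ ?_ ?_ ?_ hy
    · rintro z ⟨a, b, rfl, x, hx, w, hw, rfl⟩
      obtain ⟨h₁, h₁'⟩ := ih a x hx
      have hw' : w ∈ totS hF := mem_tot (i := b) hw
      have hw'' : (⟨w, hw'⟩ : totS hF) ∈ resF hF b := hw
      refine ⟨LieSubalgebra.lie_mem _ h₁ hw', ?_⟩
      exact lie_mem_brk h₁' hw''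
    · exact ⟨zero_mem _, zero_mem _⟩
    · rintro y z _ _ ⟨h₁, h₁'⟩ ⟨h₂, h₂'⟩
      exact ⟨add_mem h₁ h₂, add_mem h₁' h₂'⟩
    · rintro y _ ⟨h₁, h₁'⟩
      exact ⟨neg_mem h₁, neg_mem h₁'⟩

/-- The Higman-Kreknin-Kostrikin theorem for graded families, without generation hypothesis. -/
theorem lcs_eq_bot' {F : Fam L p} (hF : IsGr F) (i : ZMod p) : lcs F (xiN p) i = ⊥ := by
  refine eq_bot_iff.mpr fun y hy => ?_
  obtain ⟨h, h'⟩ := lcs_lift hF _ i y hy
  have h0 := lcs_eq_bot (isGr_resF hF) (tot_resF hF) i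
  rw [h0, AddSubgroup.mem_bot] at h'
  rw [AddSubgroup.mem_bot]
  exact congrArg Subtype.val h'

/-- fixed points of the extended map are torsion -/
lemma fixed_tilde_torsion (f : L →+ L) (m : ℕ) (hfix : ∀ x, f x = x → m • x = 0)
    (x : RR p ⊗[ℤ] L) (hx : tilde f x = x) : m • x = 0 := by
  let g : L →ₗ[ℤ] L := f.toIntLinearMap - LinearMap.id
  have e : ∀ z : RR p ⊗[ℤ] L, g.lTensor (RR p) z = tilde f z - z := by
    intro z
    induction z using TensorProduct.induction_on with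
    | zero => simp
    | add z z' h₁ h₂ =>
      simp only [map_add, h₁, h₂]
      abel
    | tmul r a =>
      change r ⊗ₜ[ℤ] (f a - a) = r ⊗ₜ[ℤ] f a - r ⊗ₜ[ℤ] a
      rw [TensorProduct.tmul_sub]
  have h0 : g.lTensor (RR p) x = 0 := by rw [e, hx, sub_self]
  have hex : Function.Exact (LinearMap.ker g).subtype g := LinearMap.exact_subtype_ker_map g
  have hex2 := Module.Flat.lTensor_exact (RR p) hex
  obtain ⟨y, rfl⟩ := (hex2 x).mp h0
  have hall : ∀ y : RR p ⊗[ℤ] (LinearMap.ker g), m • y = 0 := by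
    intro y
    induction y using TensorProduct.induction_on with
    | zero => simp
    | add y y' h₁ h₂ => rw [smul_add, h₁, h₂, add_zero]
    | tmul r c =>
      rw [← TensorProduct.tmul_smul]
      have hc : m • c = 0 := by
        apply Subtype.ext
        have hc' : g (c : L) = 0 := c.2
        have : f (c : L) = c := by
          have : f (c : L) - c = 0 := hc'
          exact sub_eq_zero.mp this
        have := hfix _ this
        simpa using this
      rw [hc, TensorProduct.tmul_zero]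
  rw [← map_nsmul, hall y, map_zero]

/-- the shifted family -/
noncomputable def shF (f : L →+ L) (m : ℕ) : Fam (RR p ⊗[ℤ] L) p := fun i =>
  (eig (p := p) f i).map (nsmulAddMonoidHom (α := RR p ⊗[ℤ] L) m)

lemma mem_shF {f : L →+ L} {m : ℕ} {i : ZMod p} {x : RR p ⊗[ℤ] L} (hx : x ∈ eig (p := p) f i) :
    m • x ∈ shF (p := p) f m i :=
  ⟨x, hx, rfl⟩

lemma eig_lie {f : L →+ L} (hf : ∀ x y, f ⁅x, y⁆ = ⁅f x, f y⁆) {a b : ZMod p}
    {x y : RR p ⊗[ℤ] L} (hx : x ∈ eig (p := p) f a) (hy : y ∈ eig (p := p) f b) :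
    ⁅x, y⁆ ∈ eig (p := p) f (a + b) := by
  rw [mem_eig] at hx hy ⊢
  rw [tilde_lie f hf, hx, hy, smul_lie_tilde, lie_smul_tilde, ww_add, mul_smul]

lemma isGr_shF (f : L →+ L) (hf : ∀ x y, f ⁅x, y⁆ = ⁅f x, f y⁆) (m : ℕ)
    (hfix : ∀ x, f x = x → m • x = 0) : IsGr (shF (p := p) f m) where
  lie_mem := by
    rintro a b _ _ ⟨x, hx, rfl⟩ ⟨y, hy, rfl⟩
    have hy' : m • y ∈ eig (p := p) f b := nsmul_mem hy m
    have h1 := eig_lie hf hx hy'
    refine ⟨_, h1, ?_⟩
    simp only [nsmulAddMonoidHom_apply, nsmul_lie]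
  zero := by
    refine le_antisymm ?_ bot_le
    rintro _ ⟨x, hx, rfl⟩
    rw [SetLike.mem_coe, mem_eig, ww_zero, one_smul] at hx
    have := fixed_tilde_torsion f m hfix x hx
    simpa using this

lemma one_tmul_mem_tot_shF (f : L →+ L) (hn : ∀ x, f^[p] x = x) (m : ℕ) (x : L) :
    (m * p) • ((1 : RR p) ⊗ₜ[ℤ] x) ∈ tot (shF (p := p) f m) := by
  have hT : ∀ x : RR p ⊗[ℤ] L, (tilde f)^[p] x = x := tilde_iterate_eq f hn
  rw [mul_smul, ← sum_comp (tilde f) ((1 : RR p) ⊗ₜ[ℤ] x), Finset.smul_sum]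
  exact sum_mem fun i _ => mem_tot (i := i) (mem_shF (comp_mem (tilde f) hT _ i))

lemma lcsL_mem_tot (f : L →+ L) (hn : ∀ x, f^[p] x = x) (m : ℕ) (k : ℕ) :
    ∀ x ∈ lcsL L k, ((m * p) ^ (k + 1)) • ((1 : RR p) ⊗ₜ[ℤ] x) ∈ tot (lcs (shF (p := p) f m) k) := by
  induction k with
  | zero =>
    intro x _
    have := one_tmul_mem_tot_shF (p := p) f hn m x
    rw [zero_add, pow_one]
    exact this
  | succ k ih =>
    intro x hx
    refine AddSubgroup.closure_induction (p := fun x _ =>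
      ((m * p) ^ (k + 1 + 1)) • ((1 : RR p) ⊗ₜ[ℤ] x) ∈ tot (lcs (shF (p := p) f m) (k + 1)))
      ?_ ?_ ?_ ?_ hx
    · rintro _ ⟨a, ha, b, rfl⟩
      have e : ((m * p) ^ (k + 1 + 1)) • ((1 : RR p) ⊗ₜ[ℤ] ⁅a, b⁆) =
          ⁅((m * p) ^ (k + 1)) • ((1 : RR p) ⊗ₜ[ℤ] a), (m * p) • ((1 : RR p) ⊗ₜ[ℤ] b)⁆ := by
        rw [nsmul_lie, lie_nsmul, lie_tmul, one_mul, pow_succ _ (k + 1), mul_smul, smul_comm]
      rw [e]
      have h1 := ih a ha
      have h2 := one_tmul_mem_tot_shF (p := p) f hn m b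
      refine tot_induction (P := fun u => ⁅u, (m * p) • ((1 : RR p) ⊗ₜ[ℤ] b)⁆ ∈
        tot (lcs (shF (p := p) f m) (k + 1))) h1 ?_ ?_ ?_
      · intro i u hu
        refine tot_induction (P := fun v => ⁅u, v⁆ ∈ tot (lcs (shF (p := p) f m) (k + 1)))
          h2 ?_ ?_ ?_
        · intro j v hv
          exact mem_tot (i := i + j) (lie_mem_brk hu hv)
        · rw [lie_zero]; exact zero_mem _
        · intro y z h₁ h₂
          rw [lie_add]; exact add_mem h₁ h₂
      · rw [zero_lie]; exact zero_mem _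
      · intro y z h₁ h₂
        rw [add_lie]; exact add_mem h₁ h₂
    · rw [TensorProduct.tmul_zero, smul_zero]; exact zero_mem _
    · intro _ _ _ _ h₁ h₂
      rw [TensorProduct.tmul_add, smul_add]; exact add_mem h₁ h₂
    · intro _ _ h₁
      rw [TensorProduct.tmul_neg, smul_neg]; exact neg_mem h₁

/-- **Torsion form of Higman-Kreknin-Kostrikin.** -/
theorem tors_lcsL (f : L →+ L) (hf : ∀ x y, f ⁅x, y⁆ = ⁅f x, f y⁆) (hn : ∀ x, f^[p] x = x)
    (m : ℕ) (hfix : ∀ x, f x = x → m • x = 0) :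
    ∀ x ∈ lcsL L (xiN p), ((m * p) ^ (xiN p + 1)) • x = 0 := by
  intro x hx
  have h1 := lcsL_mem_tot (p := p) f hn m _ x hx
  have h2 : tot (lcs (shF (p := p) f m) (xiN p)) = ⊥ := by
    unfold tot
    exact iSup_eq_bot.mpr fun i => lcs_eq_bot' (isGr_shF f hf m hfix) i
  rw [h2, AddSubgroup.mem_bot] at h1
  apply emb_injective (p := p)
  simp only [TensorProduct.tmul_zero]
  rwa [← TensorProduct.tmul_smul] at h1

end Cfsg.Agent.Lib.Alperin.Tors
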