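import Cfsg.Agent.Lib.Alperin.Key
import Cfsg.Agent.Lib.Alperin.Tors

/-!
Alperin's theorem for finite `p`-groups: an automorphism `α` with `α^p = 1` and at most `p^n` fixed
points bounds the derived length in terms of `p` and `n`.
-/

set_option autoImplicit false

namespace Cfsg.Agent.Lib.Alperin.PGroup

open scoped commutatorElement
open Cfsg.Agent.Lib.Alperin.Mho Cfsg.Agent.Lib.Alperin.Sect Cfsg.Agent.Lib.Alperin.Key
open Cfsg.Agent.Lib.Alperin.Tors
open Cfsg.Agent.Lib.HigmanLie.AssocLie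

universe u

variable {p : ℕ} [hp : Fact p.Prime]

theorem fix_torsion {W : Type u} [Group W] [Finite W] (hW : IsPGroup p W) (α : MulAut W) {n : ℕ}
    (hFix : Nat.card {x : W // α x = x} ≤ p ^ n) (x : LL W) (hx : αL α x = x) : (p ^ n) • x = 0 := by
  refine DFinsupp.ext fun i => ?_
  have hi : αA α i (x i) = x i := by
    rw [← αL_apply, hx]
  -- the section
  let H := ↥(gam W i)
  let K : Subgroup H := (gam W (i + 1)).subgroupOf (gam W i)
  let π : H →* H ⧸ K := QuotientGroup.mk' K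
  have hπ : Function.Surjective π := QuotientGroup.mk'_surjective K
  have h1 := card_fix_le_of_surj π hπ (αγ α i) (αQ α i) (fun _ => rfl)
  have h2 : Nat.card {y : H // αγ α i y = y} ≤ Nat.card {x : W // α x = x} := by
    apply Nat.card_le_card_of_injective
      (fun y : {y : H // αγ α i y = y} =>
        (⟨(y.1 : W), congrArg Subtype.val y.2⟩ : {x : W // α x = x}))
    intro a b h
    apply Subtype.ext
    apply Subtype.ext
    exact congrArg (fun z : {x : W // α x = x} => z.1) h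
  let F : Subgroup (H ⧸ K) := MonoidHom.eqLocus (αQ α i) (MonoidHom.id _)
  have hFcard : Nat.card F ≤ p ^ n := by
    have e : Nat.card F = Nat.card {y : H ⧸ K // αQ α i y = y} :=
      Nat.card_congr (Equiv.subtypeEquivRight (fun _ => Iff.rfl))
    rw [e]
    exact h1.trans (h2.trans hFix)
  have hQp : IsPGroup p (H ⧸ K) :=
    IsPGroup.of_surjective (hW.to_subgroup (gam W i)) π hπ
  have hFp : IsPGroup p F := hQp.to_subgroup F
  obtain ⟨k, hk⟩ := IsPGroup.iff_card.mp hFp
  have hkn : k ≤ n := by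
    rw [hk] at hFcard
    exact (Nat.pow_le_pow_iff_right (Fact.out : p.Prime).one_lt).mp hFcard
  let q : H ⧸ K := (x i).toMul
  have hq : αQ α i q = q := congrArg Additive.toMul hi
  have hqF : q ∈ F := hq
  have hpow : q ^ (p ^ n) = 1 := by
    have h3 : (⟨q, hqF⟩ : F) ^ Nat.card F = 1 := pow_card_eq_one'
    rw [hk] at h3
    have h4 : q ^ (p ^ k) = 1 := congrArg Subtype.val h3
    have h5 : p ^ n = p ^ k * p ^ (n - k) := by
      rw [← pow_add]
      congr 1
      omega
    rw [h5, pow_mul, h4, one_pow]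
  show (p ^ n) • (x i) = 0
  exact congrArg Additive.ofMul hpow

theorem pow_mem_gam {W : Type u} [Group W] [Finite W] (hW : IsPGroup p W) (α : MulAut W)
    (hα : α ^ p = 1) {n : ℕ} (hFix : Nat.card {x : W // α x = x} ≤ p ^ n) {g : W}
    (hg : g ∈ gam W (xiN p)) : g ^ ((p ^ n * p) ^ (xiN p + 1)) ∈ gam W (xiN p + 1) := by
  have hT := tors_lcsL (L := LL W) (p := p) (αL α) (αL_lie α) (αL_iterate α hα) (p ^ n)
    (fix_torsion hW α hFix) (ι _ g hg) (ι_mem_lcsL _ g hg)
  rw [← ι_pow] at hT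
  exact ι_eq_zero hT

variable {Q : Type u} [Group Q] [Finite Q]

/-- the depth of the Frattini chain -/
def tt (p n : ℕ) : ℕ := ((p ^ n) ^ p).factorial

theorem deep_sec (hQ : IsPGroup p Q) (α : MulAut Q) (hαp : ∀ x, (α : Q →* Q)^[p] x = x) {n : ℕ}
    (hFix : Nat.card {x : Q // α x = x} ≤ p ^ n) :
    ∀ U B : Subgroup Q, U.Normal → B.Normal → (∀ x ∈ U, α x ∈ U) → (∀ x ∈ B, α x ∈ B) →
      (∀ x ∈ B, ∀ y ∈ B, ⁅x, y⁆ ∈ U) → (∀ x ∈ B, x ^ p ∈ U) →
      ∀ g ∈ (Fr p)^[tt p n] (⊤ : Subgroup Q), ∀ x ∈ B, ⁅g, x⁆ ∈ U := by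
  intro U B hU hB hUα hBα hcomm hpow g hg x hx
  haveI := hU
  haveI := hB
  have h1 := sec_card_le (Fact.out : p.Prime) (α : Q →* Q) hαp hFix hUα hBα hcomm hpow
  obtain ⟨C, hCn, hCi, hC⟩ := exists_central_index U B
  haveI := hCn
  have h2 : C.index ≤ tt p n := hCi.trans (Nat.factorial_le h1)
  exact hC g (Fr_iter_le hQ h2 hg) x hx

lemma derived_le_Fr_iter (k : ℕ) : derivedSeries Q k ≤ (Fr p)^[k] (⊤ : Subgroup Q) := by
  induction k with
  | zero => exact le_rfl
  | succ k ih =>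
    rw [Function.iterate_succ_apply', derivedSeries_succ]
    exact (Subgroup.commutator_mono ih ih).trans (comm_le_Fr _)

lemma derived_le_lcs (G : Type*) [Group G] (k : ℕ) :
    derivedSeries G k ≤ gam G k := by
  induction k with
  | zero => exact le_rfl
  | succ k ih =>
    rw [derivedSeries_succ]
    exact Subgroup.commutator_mono ih le_top

lemma derived_add_le (W : Subgroup Q) (k : ℕ) (h : derivedSeries Q k ≤ W) (c : ℕ) :
    derivedSeries Q (k + c) ≤ (derivedSeries W c).map W.subtype := by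
  induction c with
  | zero =>
    rw [derivedSeries_zero, ← MonoidHom.range_eq_map, Subgroup.range_subtype]
    exact h
  | succ c ih =>
    rw [← add_assoc, derivedSeries_succ, derivedSeries_succ, Subgroup.map_commutator]
    exact Subgroup.commutator_mono ih ih

/-- the restriction of an automorphism to a stable subgroup -/
noncomputable def resAut (α : MulAut Q) (W : Subgroup Q) (hW : ∀ x ∈ W, α x ∈ W) : MulAut W :=
  MulEquiv.ofBijective
    (((α : Q →* Q).comp W.subtype).codRestrict W (fun x => hW _ x.2))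
    (Finite.injective_iff_bijective.mp (by
      intro a b h
      apply Subtype.ext
      exact α.injective (congrArg Subtype.val h)))

@[simp] lemma resAut_coe (α : MulAut Q) (W : Subgroup Q) (hW : ∀ x ∈ W, α x ∈ W) (x : W) :
    ((resAut α W hW x : W) : Q) = α x := rfl

lemma resAut_pow (α : MulAut Q) (W : Subgroup Q) (hW : ∀ x ∈ W, α x ∈ W) (k : ℕ) (x : W) :
    (((resAut α W hW) ^ k) x : Q) = (α ^ k) x := by
  induction k generalizing x with
  | zero => rfl
  | succ k ih =>
    rw [pow_succ, pow_succ, MulAut.mul_apply, MulAut.mul_apply, ih]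
    rfl

/-- the derived length bound -/
def DD (p n : ℕ) : ℕ := tt p n + (n + 1) * (xiN p + 1) + (xiN p + 1)

/-- The deep term `W` is nilpotent of class at most `ξ + 1`. -/
theorem gam_eq_bot (hQ : IsPGroup p Q) (α : MulAut Q) (hα : α ^ p = 1) {n : ℕ}
    (hFix : Nat.card {x : Q // α x = x} ≤ p ^ n) (V : Subgroup Q) (hVn : V.Normal)
    (hVα : ∀ x ∈ V, α x ∈ V)
    (hVsec : ∀ U B : Subgroup Q, U.Normal → B.Normal → (∀ x ∈ U, α x ∈ U) → (∀ x ∈ B, α x ∈ B) →
      (∀ x ∈ B, ∀ y ∈ B, ⁅x, y⁆ ∈ U) → (∀ x ∈ B, x ^ p ∈ U) → ∀ g ∈ V, ∀ x ∈ B, ⁅g, x⁆ ∈ U) :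
    gam ↥((mho p)^[(n + 1) * (xiN p + 1)] V) (xiN p + 1) = ⊥ := by
  have hαp : ∀ x, (α : Q →* Q)^[p] x = x := by
    have hk : ∀ (k : ℕ) (x : Q), (α : Q →* Q)^[k] x = (α ^ k) x := by
      intro k x
      induction k generalizing x with
      | zero => rfl
      | succ k ih =>
        rw [Function.iterate_succ_apply', ih, pow_succ']
        rfl
    intro x
    rw [hk, hα]
    rfl
  set f : ℕ := (n + 1) * (xiN p + 1) with hf
  set ξ : ℕ := xiN p with hξ
  let W : Subgroup Q := (mho p)^[f] V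
  haveI hWn : W.Normal := mho_iter_normal _ hVn
  have hWα : ∀ x ∈ W, α x ∈ W := mho_iter_stable (φ := (α : Q →* Q)) _ hVα
  have hWV : W ≤ V := mho_iter_le _ V
  let αW : MulAut W := resAut α W hWα
  have hαW : αW ^ p = 1 := by
    ext x
    rw [resAut_pow, hα]
    rfl
  have hFixW : Nat.card {x : W // αW x = x} ≤ p ^ n := by
    refine le_trans ?_ hFix
    apply Nat.card_le_card_of_injective
      (fun x : {x : W // αW x = x} => (⟨(x.1 : Q), congrArg Subtype.val x.2⟩ : {x : Q // α x = x}))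
    intro a b h
    apply Subtype.ext
    apply Subtype.ext
    exact congrArg (fun z : {x : Q // α x = x} => z.1) h
  have hWp : IsPGroup p W := hQ.to_subgroup W
  let M : Subgroup Q := (gam W ξ).map W.subtype
  let M₂ : Subgroup Q := (gam W (ξ + 1)).map W.subtype
  have hnormal : ∀ i : ℕ, ((gam W i).map W.subtype).Normal := by
    intro i
    constructor
    rintro _ ⟨x, hx, rfl⟩ g
    refine ⟨MulAut.conjNormal g x, aut_mem (MulAut.conjNormal g) hx, ?_⟩
    simp [MulAut.conjNormal_apply]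
  have hstable : ∀ i : ℕ, ∀ x ∈ (gam W i).map W.subtype, α x ∈ (gam W i).map W.subtype := by
    rintro i _ ⟨x, hx, rfl⟩
    exact ⟨αW x, aut_mem αW hx, rfl⟩
  have hMn : M.Normal := hnormal ξ
  have hMα : ∀ x ∈ M, α x ∈ M := hstable ξ
  haveI hM₂n : M₂.Normal := hnormal (ξ + 1)
  have hMW : M ≤ W := by
    rintro _ ⟨x, _, rfl⟩
    exact x.2
  have hMV : M ≤ V := hMW.trans hWV
  have hf' : (p ^ n * p) ^ (ξ + 1) = p ^ f := by
    rw [← pow_succ, ← pow_mul]
  have hpow : ∀ y ∈ M, y ^ (p ^ f) ∈ M₂ := by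
    rintro _ ⟨x, hx, rfl⟩
    have := pow_mem_gam hWp αW hαW hFixW hx
    rw [hf'] at this
    exact ⟨_, this, rfl⟩
  have hcomm : ∀ y ∈ M, ∀ y' ∈ M, ⁅y, y'⁆ ∈ M₂ := by
    rintro _ ⟨x, hx, rfl⟩ _ ⟨x', _, rfl⟩
    exact ⟨⁅x, x'⁆, comm_top_mem hx x', rfl⟩
  have hE := comm_mem_mho_iter hQ α hαp hVsec f hMn hMα hMV
  have hM₂le : M₂ ≤ (mho p)^[f + 1] M := by
    rw [Subgroup.map_le_iff_le_comap]
    show ⁅gam W ξ, (⊤ : Subgroup W)⁆ ≤ _
    rw [Subgroup.commutator_le]
    intro x hx g _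
    have h1 := hE (g : Q) g.2 (x : Q) ⟨x, hx, rfl⟩
    rw [Subgroup.mem_comap]
    have h2 : (W.subtype ⁅x, g⁆) = ⁅(g : Q), (x : Q)⁆⁻¹ := by
      rw [map_commutatorElement, commutatorElement_inv]
      rfl
    rw [h2]
    exact inv_mem h1
  -- powers
  let c := QuotientGroup.mk' M₂
  have hpw : ∀ k : ℕ, k ≤ f → ∀ y ∈ (mho p)^[k] M, y ^ (p ^ (f - k)) ∈ M₂ := by
    intro k
    induction k with
    | zero =>
      intro _ y hy
      exact hpow y hy
    | succ k ih =>
      intro hk y hy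
      rw [Function.iterate_succ_apply'] at hy
      have hk' : k ≤ f := by omega
      have e : f - k = (f - (k + 1)) + 1 := by omega
      have hind : y ∈ M ∧ y ^ (p ^ (f - (k + 1))) ∈ M₂ := by
        refine Subgroup.closure_induction
          (p := fun y _ => y ∈ M ∧ y ^ (p ^ (f - (k + 1))) ∈ M₂) ?_ ?_ ?_ ?_ hy
        · rintro _ ⟨x, hx, rfl⟩
          refine ⟨pow_mem (mho_iter_le k M hx) p, ?_⟩
          rw [← pow_mul, ← pow_succ']
          rw [← e]
          exact ih hk' x hx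
        · exact ⟨one_mem _, by rw [one_pow]; exact one_mem _⟩
        · rintro a b _ _ ⟨ha, ha'⟩ ⟨hb, hb'⟩
          refine ⟨mul_mem ha hb, ?_⟩
          rw [← QuotientGroup.eq_one_iff]
          change c _ = 1
          have hc1 : c ⁅a, b⁆ = 1 := (QuotientGroup.eq_one_iff _).mpr (hcomm a ha b hb)
          rw [map_commutatorElement] at hc1
          have hcab : Commute (c a) (c b) := commutatorElement_eq_one_iff_commute.mp hc1
          rw [map_pow, map_mul, hcab.mul_pow, ← map_pow, ← map_pow]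
          have h1 : c (a ^ (p ^ (f - (k + 1)))) = 1 := (QuotientGroup.eq_one_iff _).mpr ha'
          have h2 : c (b ^ (p ^ (f - (k + 1)))) = 1 := (QuotientGroup.eq_one_iff _).mpr hb'
          rw [h1, h2, one_mul]
        · rintro a _ ⟨ha, ha'⟩
          refine ⟨inv_mem ha, ?_⟩
          rw [inv_pow]
          exact inv_mem ha'
      exact hind.2
  have hAM₂ : (mho p)^[f] M ≤ M₂ := by
    intro y hy
    have := hpw f le_rfl y hy
    simpa using this
  have hAeq : (mho p)^[f + 1] M = mho p ((mho p)^[f] M) := Function.iterate_succ_apply' _ _ _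
  have hAbot : (mho p)^[f] M = ⊥ := by
    by_contra hne
    have hlt := Fr_lt hQ hne
    have h1 : (mho p)^[f] M ≤ Fr p ((mho p)^[f] M) := by
      calc (mho p)^[f] M ≤ M₂ := hAM₂
        _ ≤ (mho p)^[f + 1] M := hM₂le
        _ = mho p ((mho p)^[f] M) := hAeq
        _ ≤ Fr p ((mho p)^[f] M) := le_sup_left
    exact absurd h1 (not_le_of_gt hlt)
  have hM₂bot : M₂ = ⊥ := by
    refine eq_bot_iff.mpr (hM₂le.trans ?_)
    rw [hAeq, hAbot]
    exact mho_le _
  exact (Subgroup.map_eq_bot_iff_of_injective _ W.subtype_injective).mp hM₂bot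

/-- **Alperin's theorem for finite `p`-groups.** -/
theorem derived_eq_bot (hQ : IsPGroup p Q) (α : MulAut Q) (hα : α ^ p = 1) {n : ℕ}
    (hFix : Nat.card {x : Q // α x = x} ≤ p ^ n) : derivedSeries Q (DD p n) = ⊥ := by
  have hαp : ∀ x, (α : Q →* Q)^[p] x = x := by
    have hk : ∀ (k : ℕ) (x : Q), (α : Q →* Q)^[k] x = (α ^ k) x := by
      intro k x
      induction k generalizing x with
      | zero => rfl
      | succ k ih =>
        rw [Function.iterate_succ_apply', ih, pow_succ']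
        rfl
    intro x
    rw [hk, hα]
    rfl
  let V : Subgroup Q := (Fr p)^[tt p n] ⊤
  have hVn : V.Normal := Fr_iter_normal _ inferInstance
  have hVα : ∀ x ∈ V, α x ∈ V := Fr_iter_stable (φ := (α : Q →* Q)) _ (fun _ _ => Subgroup.mem_top _)
  have hVsec := deep_sec hQ α hαp hFix
  have hlc := gam_eq_bot hQ α hα hFix V hVn hVα hVsec
  set f : ℕ := (n + 1) * (xiN p + 1) with hf
  have h1 : derivedSeries Q (tt p n) ≤ V := derived_le_Fr_iter _
  have h2 : ∀ j : ℕ, derivedSeries Q (tt p n + j) ≤ (mho p)^[j] V := by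
    intro j
    induction j with
    | zero => exact h1
    | succ j ih =>
      rw [← add_assoc, derivedSeries_succ, Function.iterate_succ_apply']
      refine (Subgroup.commutator_mono ih ih).trans ?_
      rw [Subgroup.commutator_le]
      intro a ha b hb
      exact comm_mem_mho hQ α hαp hVsec (mho_iter_normal j hVn)
        (mho_iter_stable (φ := (α : Q →* Q)) j hVα) (mho_iter_le j V) a (mho_iter_le j V ha) b hb
  have h3 := derived_add_le ((mho p)^[f] V) (tt p n + f) (h2 f) (xiN p + 1)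
  have h4 : derivedSeries ↥((mho p)^[f] V) (xiN p + 1) = ⊥ :=
    eq_bot_iff.mpr ((derived_le_lcs _ _).trans_eq hlc)
  rw [h4, Subgroup.map_bot] at h3
  exact eq_bot_iff.mpr h3

end Cfsg.Agent.Lib.Alperin.PGroup
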