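import Mathlib

/-!
Fixed points in sections, and the bound `|A| ≤ |C_A(β)|^p` for elementary abelian `A`.
-/

set_option autoImplicit false

namespace Cfsg.Agent.Lib.Alperin.Sect

/-- Fixed points do not grow when passing to a homomorphic image. -/
theorem card_fix_le_of_surj {H H' : Type*} [Group H] [Group H'] [Finite H] (π : H →* H')
    (hπ : Function.Surjective π) (β : H →* H) (β' : H' →* H')
    (hc : ∀ x, π (β x) = β' (π x)) :
    Nat.card {y : H' // β' y = y} ≤ Nat.card {x : H // β x = x} := by
  haveI : Finite H' := Finite.of_surjective π hπ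
  let FixQ : Subgroup H' := MonoidHom.eqLocus β' (MonoidHom.id H')
  let FixH : Subgroup H := MonoidHom.eqLocus β (MonoidHom.id H)
  let C : Subgroup H := FixQ.comap π
  have e1 : Nat.card {y : H' // β' y = y} = Nat.card FixQ :=
    Nat.card_congr (Equiv.subtypeEquivRight (fun _ => Iff.rfl))
  have e2 : Nat.card {x : H // β x = x} = Nat.card FixH :=
    Nat.card_congr (Equiv.subtypeEquivRight (fun _ => Iff.rfl))
  rw [e1, e2]
  -- `|C| = |ker π| |FixQ|`
  have hC : Nat.card C = Nat.card π.ker * Nat.card FixQ := by
    have h1 := Subgroup.card_mul_index C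
    have h2 := Subgroup.card_mul_index FixQ
    have h3 := Subgroup.card_mul_index π.ker
    have hi : C.index = FixQ.index := Subgroup.index_comap_of_surjective FixQ hπ
    have hk : π.ker.index = Nat.card H' := by
      rw [Subgroup.index_ker, MonoidHom.range_eq_top.mpr hπ]
      exact Nat.card_congr Subgroup.topEquiv.toEquiv
    rw [hk] at h3
    have hpos : 0 < FixQ.index := Nat.pos_of_ne_zero (Subgroup.index_ne_zero_of_finite)
    apply Nat.eq_of_mul_eq_mul_right hpos
    rw [← hi, h1, hi, mul_assoc, h2, h3]
  have hFC : FixH ≤ C := by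
    intro x hx
    have hx' : β x = x := hx
    show β' (π x) = π x
    rw [← hc, hx']
  -- the map `x ↦ x (β x)⁻¹`
  let ψ : C → π.ker := fun x => ⟨(x : H) * (β x)⁻¹, by
    have hx : β' (π x) = π x := x.2
    rw [MonoidHom.mem_ker, map_mul, map_inv, hc, hx, mul_inv_cancel]⟩
  have hψ : ∀ a b : C, ψ a = ψ b ↔ a⁻¹ * b ∈ FixH.subgroupOf C := by
    intro a b
    rw [Subgroup.mem_subgroupOf]
    constructor
    · intro h
      have h' : (a : H) * (β a)⁻¹ = (b : H) * (β b)⁻¹ := congrArg Subtype.val h
      show β ((a : H)⁻¹ * b) = (a : H)⁻¹ * b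
      rw [map_mul, map_inv]
      calc (β (a : H))⁻¹ * β (b : H) = (a : H)⁻¹ * ((a : H) * (β (a : H))⁻¹) * β (b : H) := by group
        _ = (a : H)⁻¹ * ((b : H) * (β (b : H))⁻¹) * β (b : H) := by rw [h']
        _ = (a : H)⁻¹ * b := by group
    · intro h
      have h' : β ((a : H)⁻¹ * b) = (a : H)⁻¹ * b := h
      apply Subtype.ext
      show (a : H) * (β a)⁻¹ = (b : H) * (β b)⁻¹
      rw [map_mul, map_inv] at h'
      have : β (b : H) = β a * ((a : H)⁻¹ * b) := by rw [← h']; group
      rw [this]
      group
  let Ψ : C ⧸ FixH.subgroupOf C → π.ker := Quotient.lift ψ (by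
    intro a b hab
    have : a⁻¹ * b ∈ FixH.subgroupOf C := QuotientGroup.leftRel_apply.mp hab
    exact (hψ a b).mpr this)
  have hΨ : Function.Injective Ψ := by
    intro a b
    induction a using Quotient.inductionOn with | _ a => ?_
    induction b using Quotient.inductionOn with | _ b => ?_
    intro h
    apply Quotient.sound
    exact QuotientGroup.leftRel_apply.mpr ((hψ a b).mp h)
  have hle : (FixH.subgroupOf C).index ≤ Nat.card π.ker := by
    rw [Subgroup.index]
    exact Nat.card_le_card_of_injective Ψ hΨ
  have hcardS : Nat.card (FixH.subgroupOf C) ≤ Nat.card FixH := by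
    apply Nat.card_le_card_of_injective (fun x : FixH.subgroupOf C => (⟨(x : C), x.2⟩ : FixH))
    intro a b h
    apply Subtype.ext
    apply Subtype.ext
    exact congrArg (fun z : FixH => (z : H)) h
  have hm := Subgroup.card_mul_index (FixH.subgroupOf C)
  have hkpos : 0 < Nat.card π.ker := Nat.card_pos
  have : Nat.card π.ker * Nat.card FixQ ≤ Nat.card π.ker * Nat.card FixH := by
    rw [← hC, ← hm]
    calc Nat.card (FixH.subgroupOf C) * (FixH.subgroupOf C).index
        ≤ Nat.card FixH * Nat.card π.ker := Nat.mul_le_mul hcardS hle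
      _ = Nat.card π.ker * Nat.card FixH := mul_comm _ _
  exact Nat.le_of_mul_le_mul_left this hkpos

/-- Nilpotent additive endomorphisms: `|S| ≤ |ker g|^k`. -/
theorem card_le_ker_pow {V : Type*} [AddCommGroup V] [Finite V] (g : V →+ V) :
    ∀ (k : ℕ) (S : AddSubgroup V), (∀ x ∈ S, g^[k] x = 0) →
      Nat.card S ≤ (Nat.card g.ker) ^ k := by
  intro k
  induction k with
  | zero =>
    intro S hS
    have : S = ⊥ := by
      refine (AddSubgroup.eq_bot_iff_forall S).mpr fun x hx => ?_
      simpa using hS x hx
    rw [this]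
    simp
  | succ k ih =>
    intro S hS
    let φ : S →+ V := g.comp S.subtype
    have h1 := AddSubgroup.card_mul_index φ.ker
    have h2 : φ.ker.index = Nat.card φ.range := AddSubgroup.index_ker φ
    rw [h2] at h1
    have h3 : Nat.card φ.range ≤ (Nat.card g.ker) ^ k := by
      apply ih
      rintro _ ⟨x, rfl⟩
      have := hS x x.2
      rw [Function.iterate_succ_apply] at this
      exact this
    have h4 : Nat.card φ.ker ≤ Nat.card g.ker := by
      apply Nat.card_le_card_of_injective
        (fun x : φ.ker => (⟨((x : S) : V), x.2⟩ : g.ker))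
      intro a b h
      apply Subtype.ext
      apply Subtype.ext
      exact congrArg (fun z : g.ker => (z : V)) h
    rw [← h1, pow_succ']
    exact Nat.mul_le_mul h4 h3

/-- additive form -/
theorem card_le_fix_pow_add {V : Type*} [AddCommGroup V] [Finite V] {p : ℕ} (hp : p.Prime)
    (hexp : ∀ x : V, p • x = 0) (f : AddMonoid.End V) (hf : ∀ x, f^[p] x = x) :
    Nat.card V ≤ (Nat.card {x : V // f x = x}) ^ p := by
  let g : AddMonoid.End V := f - 1
  have hiterE : ∀ (e : AddMonoid.End V) (k : ℕ) (x : V), e^[k] x = (e ^ k) x := by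
    intro e k x
    induction k generalizing x with
    | zero => rfl
    | succ k ih =>
      rw [Function.iterate_succ_apply, ih, pow_succ]
      rfl
  have hfp : f ^ p = 1 := by
    ext x
    rw [← hiterE, hf]
    rfl
  have hpz : ((p : ℕ) : AddMonoid.End V) = 0 := by
    ext x
    simp only [AddMonoid.End.natCast_apply]
    exact hexp x
  have hfg : g + 1 = f := by simp [g]
  have hgp : g ^ p = 0 := by
    have hc : Commute g (1 : AddMonoid.End V) := Commute.one_right g
    have h := hc.add_pow_prime_eq hp
    rw [hfg, hfp, one_pow, hpz] at h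
    have h' : (1 : AddMonoid.End V) = g ^ p + 1 := by simpa using h
    have := add_eq_right.mp h'.symm
    exact this
  let g' : V →+ V := AddMonoidHom.mk' (fun x => g x) (map_add g)
  have hg' : ∀ (k : ℕ) (x : V), g'^[k] x = g^[k] x := fun _ _ => rfl
  have h := card_le_ker_pow g' p ⊤ (by
    intro x _
    rw [hg', hiterE g, hgp]
    rfl)
  have e1 : Nat.card (⊤ : AddSubgroup V) = Nat.card V :=
    Nat.card_congr AddSubgroup.topEquiv.toEquiv
  have e2 : Nat.card g'.ker = Nat.card {x : V // f x = x} := by
    apply Nat.card_congr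
    refine Equiv.subtypeEquivRight (fun x => ?_)
    rw [AddMonoidHom.mem_ker]
    show f x - x = 0 ↔ _
    exact sub_eq_zero
  rwa [e1, e2] at h

/-- `|A| ≤ |C_A(β)|^p` for `A` elementary abelian and `β^p = 1`. -/
theorem card_le_fix_pow {A : Type*} [Group A] [Finite A] (hcomm : ∀ x y : A, x * y = y * x)
    {p : ℕ} (hp : p.Prime) (hexp : ∀ x : A, x ^ p = 1) (β : A →* A)
    (hβ : ∀ x, β^[p] x = x) : Nat.card A ≤ (Nat.card {x : A // β x = x}) ^ p := by
  let _ : CommGroup A := { (inferInstance : Group A) with mul_comm := hcomm }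
  let f : AddMonoid.End (Additive A) := MonoidHom.toAdditive β
  have hk : ∀ (k : ℕ) (x : Additive A), f^[k] x = Additive.ofMul (β^[k] x.toMul) := by
    intro k x
    induction k generalizing x with
    | zero => rfl
    | succ k ih =>
      rw [Function.iterate_succ_apply, ih, Function.iterate_succ_apply]
      rfl
  have h := card_le_fix_pow_add (V := Additive A) hp (fun x => hexp x.toMul) f (by
    intro x
    rw [hk, hβ]
    rfl)
  have e1 : Nat.card (Additive A) = Nat.card A := Nat.card_congr Additive.toMul
  have e2 : Nat.card {x : Additive A // f x = x} = Nat.card {x : A // β x = x} :=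
    Nat.card_congr (Equiv.subtypeEquiv Additive.toMul (fun _ => Iff.rfl))
  rwa [e1, e2] at h

end Cfsg.Agent.Lib.Alperin.Sect
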